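import Cfsg.Agent.OrthMono17.Final

/-!
Over the field with three elements, in dimension five, a group with the even sign changes and the
three-cycles of a frame which is not monomial contains the commutator subgroup of the isometry group.
-/

set_option autoImplicit false
set_option linter.unusedSectionVars false

namespace CfsgLib.OrthMono17.Frame

open Cfsg.Geo Module CfsgLib.OrthGeo
open scoped Matrix MatrixGroups

variable {ι : Type} [Fintype ι] [DecidableEq ι] {F : Type*} [Field F] [Fintype F]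
variable {Q : (ι → F) → F} {κ : Type} [Fintype κ] [DecidableEq κ] {𝔉 : Frame Q κ}
variable {K : Subgroup (GL ι F)}

/-- Root elements with a unit second vector lie in a non-monomial group with the sign changes and cycles. -/
theorem root_five_three (hq : Fintype.card F = 3) {R : Finset κ} (hR : R.card = 5)
    (hD : 𝔉.Data K R) (hnm : ¬ ∀ g ∈ K, 𝔉.Mono R g) :
    ∀ z w, 𝔉.InS R z → 𝔉.InS R w → 𝔉.dot z z = 0 → 𝔉.dot z w = 0 → 𝔉.dot w w = 1 → 𝔉.EJ K R z w := by
  classical
  have hodd : Odd R.card := by rw [hR]; decide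
  haveI : Fact (Nat.Prime 3) := ⟨Nat.prime_three⟩
  haveI : CharP F 3 := charP_of_card_eq_prime (p := 3) hq
  have hsq : ∀ x : F, x ≠ 0 → x * x = 1 := fun x hx => by
    have := FiniteField.pow_card_sub_one_eq_one x hx
    rw [hq] at this
    simpa [pow_two] using this
  have hwt : ∀ v, 𝔉.InS R v → 𝔉.dot v v = 1 → (𝔉.supp R v).card = 1 ∨ (𝔉.supp R v).card = 4 := by
    intro v hv hvv
    have h := hv.sum_sq_supp
    rw [hvv, Finset.sum_congr rfl (g := fun _ => (1 : F)) (fun k hk => by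
      rw [sq, hsq _ (𝔉.mem_supp.1 hk).2]), Finset.sum_const, nsmul_eq_mul, mul_one] at h
    have hle := Finset.card_le_card (𝔉.supp_subset (J := R) v)
    rw [hR] at hle
    have h' : ((((𝔉.supp R v).card : ℕ)) : F) = ((1 : ℕ) : F) := by rw [h, Nat.cast_one]
    rw [CharP.natCast_eq_natCast F 3, Nat.ModEq] at h'
    omega
  -- a vector of weight four among the images
  push Not at hnm
  obtain ⟨g, hg, hgm⟩ := hnm
  obtain ⟨v, hv, hv4⟩ : ∃ v, 𝔉.Orb K R v ∧ (𝔉.supp R v).card = 4 := by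
    unfold Mono at hgm
    push Not at hgm
    obtain ⟨i, hi, hgi⟩ := hgm
    have hv : 𝔉.Orb K R ((g : Matrix ι ι F) *ᵥ 𝔉.basis i) := ⟨g, hg, i, hi, rfl⟩
    refine ⟨_, hv, (hwt _ (hv.inS hD) (hv.dot_self hD)).resolve_left fun h1 => ?_⟩
    obtain ⟨j, hj⟩ := Finset.card_eq_one.1 h1
    obtain ⟨hjR, -⟩ := 𝔉.mem_supp.1 (hj ▸ Finset.mem_singleton_self j : j ∈ 𝔉.supp R _)
    refine hgi j hjR (𝔉.co ((g : Matrix ι ι F) *ᵥ 𝔉.basis i) j) ?_
    refine InS.ext (hv.inS hD) ((𝔉.inS_basis hjR).smul _) fun k _ => ?_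
    by_cases hk : k = j
    · subst hk; simp
    · rw [(hv.inS hD).co_eq_zero_of_not_supp (by rw [hj]; simpa using hk), co_smul,
        co_basis_ne (h := Ne.symm hk), mul_zero]
  -- all unit vectors are images
  have hall : ∀ a, 𝔉.InS R a → 𝔉.dot a a = 1 → 𝔉.Orb K R a := by
    intro a ha haa
    have key : ∀ u, 𝔉.Orb K R u → 𝔉.supp R u = 𝔉.supp R a → 𝔉.Orb K R a := by
      intro u hu hsupp
      set D₁ := R.filter fun k => 𝔉.co u k ≠ 𝔉.co a k with hD₁
      obtain ⟨o, hoR, ho⟩ : ∃ o ∈ R, 𝔉.co a o = 0 := by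
        have h45 : (𝔉.supp R a).card < R.card := by rcases hwt a ha haa with h | h <;> omega
        obtain ⟨o, ho1, ho2⟩ := Finset.exists_mem_notMem_of_card_lt_card h45
        exact ⟨o, ho1, ha.co_eq_zero_of_not_supp ho2⟩
      have hou : 𝔉.co u o = 0 := (hu.inS hD).co_eq_zero_of_not_supp (by
        rw [hsupp, mem_supp]; exact fun h => h.2 ho)
      obtain ⟨S, hSR, ⟨m, hm⟩, hSD⟩ : ∃ S ⊆ R, Even S.card ∧ ∀ k ∈ R, k ≠ o → (k ∈ S ↔ k ∈ D₁) := by
        rcases Nat.even_or_odd D₁.card with he | he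
        · exact ⟨D₁, Finset.filter_subset _ _, he, fun _ _ _ => Iff.rfl⟩
        · refine ⟨insert o D₁, Finset.insert_subset hoR (Finset.filter_subset _ _), ?_, fun k _ hk => by simp [hk]⟩
          rw [Finset.card_insert_of_notMem (by simp [hD₁, hou, ho])]
          exact he.add_one
      obtain ⟨e, he, hek⟩ := hD.sgn_set m S hSR (by omega)
      have := hu.map hD he
      convert this using 1
      refine InS.ext ha (this.inS hD) fun k hk => ?_
      have e1 := co_mulVec_mono (hu.inS hD) (σ := id)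
        (c := fun l => if l ∈ S then -1 else 1) hek (fun _ _ _ _ h => h) hk
      rw [id] at e1
      rw [e1]
      by_cases hko : k = o
      · rw [hko, hou, ho, mul_zero]
      rw [if_congr (hSD k hk hko) rfl rfl]
      by_cases hne : 𝔉.co u k = 𝔉.co a k
      · rw [if_neg (by simp [hD₁, hne]), one_mul, hne]
      · rw [if_pos (by simp [hD₁, hk, hne])]
        by_cases hk0 : k ∈ 𝔉.supp R a
        · have hu0 := (𝔉.mem_supp.1 (hsupp.symm ▸ hk0 : k ∈ 𝔉.supp R u)).2
          have ha0 := (𝔉.mem_supp.1 hk0).2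
          rcases sq_eq_sq_iff_eq_or_eq_neg.1 (show 𝔉.co a k ^ 2 = 𝔉.co u k ^ 2 by
            rw [sq, sq, hsq _ ha0, hsq _ hu0]) with h | h
          · exact absurd h.symm hne
          · rw [h]; ring
        · exact absurd (((hu.inS hD).co_eq_zero_of_not_supp (by rw [hsupp]; exact hk0)).trans
            (ha.co_eq_zero_of_not_supp hk0).symm) hne
    rcases hwt a ha haa with h1 | h4
    · obtain ⟨i, hi⟩ := Finset.card_eq_one.1 h1
      have hiR : i ∈ R := (𝔉.mem_supp.1 (hi ▸ Finset.mem_singleton_self i : i ∈ 𝔉.supp R a)).1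
      refine key _ (hD.orb_basis hiR) ?_
      rw [hi]
      ext k
      rw [mem_supp, co_basis, Finset.mem_singleton]
      by_cases hk : i = k
      · subst hk; simp [hiR]
      · simp [hk, Ne.symm hk]
    · obtain ⟨m, hm⟩ := Finset.card_eq_one.1 (show (R \ 𝔉.supp R v).card = 1 by
        rw [Finset.card_sdiff_of_subset (𝔉.supp_subset v), hR, hv4])
      obtain ⟨n, hn⟩ := Finset.card_eq_one.1 (show (R \ 𝔉.supp R a).card = 1 by
        rw [Finset.card_sdiff_of_subset (𝔉.supp_subset a), hR, h4])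
      have hmR : m ∈ R := (Finset.mem_sdiff.1 (hm ▸ Finset.mem_singleton_self m)).1
      have hnR : n ∈ R := (Finset.mem_sdiff.1 (hn ▸ Finset.mem_singleton_self n)).1
      have hsv : ∀ k, k ∈ 𝔉.supp R v ↔ k ∈ R ∧ k ≠ m := fun k => by
        constructor
        · intro h
          exact ⟨(𝔉.mem_supp.1 h).1, fun e => (Finset.mem_sdiff.1 (hm ▸ Finset.mem_singleton_self m)).2 (e ▸ h)⟩
        · rintro ⟨hk, hkm⟩
          by_contra h
          exact hkm (Finset.mem_singleton.1 (hm ▸ Finset.mem_sdiff.2 ⟨hk, h⟩))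
      have hsa : ∀ k, k ∈ 𝔉.supp R a ↔ k ∈ R ∧ k ≠ n := fun k => by
        constructor
        · intro h
          exact ⟨(𝔉.mem_supp.1 h).1, fun e => (Finset.mem_sdiff.1 (hn ▸ Finset.mem_singleton_self n)).2 (e ▸ h)⟩
        · rintro ⟨hk, hkn⟩
          by_contra h
          exact hkn (Finset.mem_singleton.1 (hn ▸ Finset.mem_sdiff.2 ⟨hk, h⟩))
      by_cases hmn : m = n
      · exact key v hv (by ext k; rw [hsv, hsa, hmn])
      obtain ⟨c, hc⟩ := (R \ {m, n}).card_pos.1 (by
        have := Finset.le_card_sdiff ({m, n} : Finset κ) R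
        have := Finset.card_pair hmn
        omega)
      simp only [Finset.mem_sdiff, Finset.mem_insert, Finset.mem_singleton, not_or] at hc
      obtain ⟨e, he, hek⟩ := hD.cyc m hmR n hnR c hc.1 hmn (Ne.symm hc.2.2) (Ne.symm hc.2.1)
      refine key _ (hv.map hD he) ?_
      set σ : κ → κ := fun k => if k = m then n else if k = n then c else if k = c then m else k with hσ
      have hσi : Function.Injective σ := by
        intro x y hxy
        simp only [hσ] at hxy
        split_ifs at hxy <;> simp_all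
      have hσR : ∀ k ∈ R, σ k ∈ R := fun k hk => by
        simp only [hσ]; split_ifs <;> first | assumption | exact hc.1
      have hσs : ∀ k ∈ R, ∃ l ∈ R, σ l = k := fun k hk => by
        obtain ⟨l, hl, hle⟩ := Finset.surj_on_of_inj_on_of_card_le (fun l _ => σ l) (fun l hl => hσR l hl)
          (fun _ _ _ _ h => hσi h) le_rfl k hk
        exact ⟨l, hl, hle.symm⟩
      ext k
      rw [mem_supp, hsa]
      refine and_congr_right fun hk => ?_
      obtain ⟨l, hl, rfl⟩ := hσs k hk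
      have e1 := co_mulVec_mono (hv.inS hD) (σ := σ) (c := fun _ => 1)
        (fun l hl => by rw [one_smul]; exact hek l hl) hσi.injOn hl
      rw [one_mul] at e1
      rw [e1]
      have hσm : σ m = n := if_pos rfl
      constructor
      · intro h hkn
        have hlm : l = m := hσi (hkn.trans hσm.symm)
        exact ((hsv l).1 (𝔉.mem_supp.2 ⟨hl, h⟩)).2 hlm
      · intro hkn
        exact (𝔉.mem_supp.1 ((hsv l).2 ⟨hl, fun h => hkn (by rw [h, hσm])⟩)).2
  -- the root elements
  intro z w hz hw hzz hzw hww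
  have hll : 𝔉.lam * 𝔉.lam = 1 := hsq _ 𝔉.lam_ne
  obtain ⟨y₁, hy₁, hy₁x⟩ := (hall (𝔉.lam • w) (hw.smul _) (by simp [hww, hll])).refl_elt hD hodd
  obtain ⟨y₂, hy₂, hy₂x⟩ := (hall (𝔉.lam • w + z) ((hw.smul _).add hz) (by
    simp [hzz, hzw, 𝔉.dot_comm w z, hww, hll])).refl_elt hD hodd
  refine ⟨y₂ * y₁, mul_mem hy₂ hy₁, fun x hx => ?_⟩
  rw [Units.val_mul, ← Matrix.mulVec_mulVec, hy₁x x hx, hy₂x _ (hx.neg.add ((hw.smul _).smul _)),
    eichlerMat_mulVec_dot (𝔉 := 𝔉)]
  simp only [dot_add_left, dot_add_right, dot_neg_right, dot_smul_left, dot_smul_right, hzw, hww,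
    smul_add, neg_add, smul_smul]
  have h30 : (3 : F) = 0 := by exact_mod_cast CharP.cast_eq_zero F 3
  match_scalars <;> first
    | ring1
    | linear_combination (4 * 𝔉.dot w x * 𝔉.lam) * hll
    | linear_combination (4 * 𝔉.dot w x * 𝔉.lam) * hll + (2 * 𝔉.dot z x) * hll
    | linear_combination (4 * 𝔉.dot w x * 𝔉.lam ^ 2) * hll
    | linear_combination (-4 * 𝔉.dot w x * 𝔉.lam ^ 2) * hll
    | linear_combination (4 * 𝔉.dot w x * 𝔉.lam ^ 2 + 2 * 𝔉.dot z x) * hll
    | linear_combination (4 * 𝔉.dot w x * 𝔉.lam - 2 * 𝔉.dot z x) * hll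

/-- Over three elements in dimension five a non-monomial overgroup of the frame data contains Omega. -/
theorem omegaGL_le_five_three (hq : Fintype.card F = 3) (hκ : Fintype.card κ = 5) (hι : 5 ≤ Fintype.card ι)
    (hD : 𝔉.Data K Finset.univ) (hnm : ¬ ∀ g ∈ K, 𝔉.Mono Finset.univ g) : omegaGL Q ≤ K := by
  classical
  haveI : Fact (Nat.Prime 3) := ⟨Nat.prime_three⟩
  haveI : CharP F 3 := charP_of_card_eq_prime (p := 3) hq
  have h30 : (3 : F) = 0 := by exact_mod_cast CharP.cast_eq_zero F 3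
  have hgood : ∀ z w, 𝔉.dot z z = 0 → 𝔉.dot z w = 0 → 𝔉.dot w w = 1 → EIn Q K z w := by
    intro z w hzz hzw hww
    obtain ⟨g, hg, hgx⟩ := root_five_three hq (R := Finset.univ) (by rw [Finset.card_univ, hκ]) hD hnm z w
      (𝔉.inS_univ _) (𝔉.inS_univ _) hzz hzw hww
    exact ⟨g, hg, Matrix.ext_of_mulVec_single fun i => hgx _ (𝔉.inS_univ _)⟩
  have hsub : ∀ z u v, 𝔉.dot z z = 0 → 𝔉.dot z u = 0 → 𝔉.dot z v = 0 → EIn Q K z u → EIn Q K z v →
      EIn Q K z (u - v) := fun z u v hzz hzu hzv hu hv =>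
    EIn.sub 𝔉.nondeg hu hv (by rw [𝔉.q_eq, hzz, mul_zero]) (by rw [𝔉.bform_eq, hzu, mul_zero])
      (by rw [𝔉.bform_eq, hzv, mul_zero])
  let R : Set (ι → F) := {z | 𝔉.dot z z = 0 ∧ ∀ w, 𝔉.dot z w = 0 → EIn Q K z w}
  have hfull : ∀ a b c : κ, a ≠ b → a ≠ c → b ≠ c → ∀ τ : F, τ * τ = 1 →
      𝔉.basis a + 𝔉.basis b + τ • 𝔉.basis c ∈ R := by
    intro a b c hab hac hbc τ hτ
    set z := 𝔉.basis a + 𝔉.basis b + τ • 𝔉.basis c with hz
    clear_value z
    have hzz : 𝔉.dot z z = 0 := by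
      simp [hz, co_basis_ne (h := hab), co_basis_ne (h := hab.symm), co_basis_ne (h := hac),
        co_basis_ne (h := hac.symm), co_basis_ne (h := hbc), co_basis_ne (h := hbc.symm)]
      linear_combination hτ + h30
    have hzS : 𝔉.InS {a, b, c} z := by
      rw [hz]
      exact ((𝔉.inS_basis (by simp)).add (𝔉.inS_basis (by simp))).add ((𝔉.inS_basis (by simp)).smul _)
    refine ⟨hzz, full_of_parts (hq ▸ Nat.prime_three) hzz hzS (fun k hk => ?_) fun w hw hzw => ?_⟩
    · exact hgood z _ hzz (by rw [dot_basis_right]; exact hzS k hk) (by simp)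
    obtain ⟨d, hd, e, he, hde⟩ := Finset.one_lt_card.1 (show 1 < ({a, b, c} : Finset κ)ᶜ.card by
      rw [Finset.card_compl, hκ, three_card hab hac hbc]; norm_num)
    simp only [Finset.mem_compl, Finset.mem_insert, Finset.mem_singleton, not_or] at hd he
    have hzd : 𝔉.dot z (𝔉.basis d) = 0 := by rw [dot_basis_right]; exact hzS d (by simp [hd.1, hd.2.1, hd.2.2])
    have hze : 𝔉.dot z (𝔉.basis e) = 0 := by rw [dot_basis_right]; exact hzS e (by simp [he.1, he.2.1, he.2.2])
    have hEd : EIn Q K z (𝔉.basis d) := hgood z _ hzz hzd (by simp)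
    have hEe : EIn Q K z (𝔉.basis e) := hgood z _ hzz hze (by simp)
    have hEz : EIn Q K z z := by
      have h1 := hgood z (z + 𝔉.basis d) hzz (by rw [dot_add_right, hzz, hzd, add_zero]) (by
        have e1 : 𝔉.dot (𝔉.basis d) z = 0 := by rw [dot_comm, hzd]
        have e2 : 𝔉.dot (𝔉.basis d) (𝔉.basis d) = 1 := by simp
        have e3 : 𝔉.dot (z + 𝔉.basis d) (z + 𝔉.basis d) = 𝔉.dot z z + 𝔉.dot z (𝔉.basis d) +
            (𝔉.dot (𝔉.basis d) z + 𝔉.dot (𝔉.basis d) (𝔉.basis d)) := by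
          rw [dot_add_left, dot_add_right, dot_add_right]
        rw [e3, hzz, hzd, e1, e2]; ring)
      have := hsub z _ _ hzz (by rw [dot_add_right, hzz, hzd, add_zero]) hzd h1 hEd
      rwa [add_sub_cancel_right] at this
    set u := 𝔉.basis a - 𝔉.basis b with hu
    clear_value u
    have hzu : 𝔉.dot z u = 0 := by
      simp [hz, hu, co_basis_ne (h := hab), co_basis_ne (h := hab.symm), co_basis_ne (h := hac.symm),
        co_basis_ne (h := hbc.symm)]
    have hEu : EIn Q K z u := by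
      have h1 := hgood z (u + 𝔉.basis d + 𝔉.basis e) hzz
        (by rw [dot_add_right, dot_add_right, hzu, hzd, hze, add_zero, add_zero]) (by
          simp [hu, co_basis_ne (h := hab), co_basis_ne (h := hab.symm), co_basis_ne (h := hde),
            co_basis_ne (h := Ne.symm hde), co_basis_ne (h := hd.1), co_basis_ne (h := Ne.symm hd.1),
            co_basis_ne (h := hd.2.1), co_basis_ne (h := Ne.symm hd.2.1), co_basis_ne (h := he.1),
            co_basis_ne (h := Ne.symm he.1), co_basis_ne (h := he.2.1), co_basis_ne (h := Ne.symm he.2.1)]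
          linear_combination h30)
      have h2 := hsub z _ _ hzz (by rw [dot_add_right, dot_add_right, hzu, hzd, hze, add_zero, add_zero]) hze h1 hEe
      rw [add_sub_cancel_right] at h2
      have h3 := hsub z _ _ hzz (by rw [dot_add_right, hzu, hzd, add_zero]) hzd h2 hEd
      rwa [add_sub_cancel_right] at h3
    have hw' : w = (τ * 𝔉.co w c) • z + (𝔉.co w a - τ * 𝔉.co w c) • u := by
      have huS : 𝔉.InS {a, b, c} u := by rw [hu]; exact (𝔉.inS_basis (by simp)).sub (𝔉.inS_basis (by simp))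
      refine InS.ext hw ((hzS.smul _).add (huS.smul _)) fun k hk => ?_
      have h1 : 𝔉.co w a + 𝔉.co w b + τ * 𝔉.co w c = 0 := by simpa [hz] using hzw
      simp only [Finset.mem_insert, Finset.mem_singleton] at hk
      rcases hk with rfl | rfl | rfl <;>
        simp [hz, hu, co_basis_ne (h := hab), co_basis_ne (h := hab.symm), co_basis_ne (h := hac),
          co_basis_ne (h := hac.symm), co_basis_ne (h := hbc), co_basis_ne (h := hbc.symm)]
      · linear_combination h1 - τ * 𝔉.co w c * h30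
      · linear_combination -𝔉.co w k * hτ
    rw [hw']
    exact eIn_add hzz (by rw [dot_smul_right, hzz, mul_zero]) (by rw [dot_smul_right, hzu, mul_zero])
      (eIn_smul (hq ▸ Nat.prime_three) hzz hzz hEz _) (eIn_smul (hq ▸ Nat.prime_three) hzz hzu hEu _)
  refine omega_le_of_root_vectors 𝔉.nondeg hι hD.iso R (fun z hz => ⟨by rw [𝔉.q_eq, hz.1, mul_zero],
      fun w hw => hz.2 w ?_⟩) fun u _ hu0 => ?_
  · rw [𝔉.bform_eq] at hw
    exact (mul_eq_zero.1 hw).resolve_left (mul_ne_zero 𝔉.two_ne 𝔉.lam_ne)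
  obtain ⟨c, hc⟩ : ∃ c, 𝔉.co u c ≠ 0 := by
    by_contra h
    push Not at h
    exact hu0 (𝔉.ext_co fun k => by rw [h k, co_zero])
  obtain ⟨a, ha, b, hb, hab⟩ := Finset.one_lt_card.1 (show 1 < (Finset.univ.erase c).card by
    rw [Finset.card_erase_of_mem (Finset.mem_univ c), Finset.card_univ, hκ]; norm_num)
  rw [Finset.mem_erase] at ha hb
  set zp := 𝔉.basis a + 𝔉.basis b + (1 : F) • 𝔉.basis c with hzp
  set zm := 𝔉.basis a + 𝔉.basis b + (-1 : F) • 𝔉.basis c with hzm
  have hp1 : zp ∈ R := hfull a b c hab ha.1 hb.1 1 (by ring)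
  have hm1 : zm ∈ R := hfull a b c hab ha.1 hb.1 (-1) (by ring)
  have hpm : 𝔉.dot zp zm = 1 := by
    simp [hzp, hzm, co_basis_ne (h := hab), co_basis_ne (h := Ne.symm hab), co_basis_ne (h := ha.1),
      co_basis_ne (h := Ne.symm ha.1), co_basis_ne (h := hb.1), co_basis_ne (h := Ne.symm hb.1)]
  have key : ∀ x y, 𝔉.dot x y ≠ 0 → bform 𝔉.nondeg x y ≠ 0 := fun x y h => by
    rw [𝔉.bform_eq]; exact mul_ne_zero (mul_ne_zero 𝔉.two_ne 𝔉.lam_ne) h
  by_cases hd : 𝔉.dot zp u = 0
  · refine ⟨zm, hm1, zp, hp1, key _ _ (by rw [dot_comm, hpm]; exact one_ne_zero), key _ _ fun h' => hc ?_⟩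
    have : 2 * 𝔉.co u c = 0 := by
      simp [hzp, hzm] at hd h'
      linear_combination hd - h'
    exact (mul_eq_zero.1 this).resolve_left 𝔉.two_ne
  · exact ⟨zp, hp1, zm, hm1, key _ _ (by rw [hpm]; exact one_ne_zero), key _ _ hd⟩

end CfsgLib.OrthMono17.Frame
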