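import Cfsg.Agent.SpC6Four90.Frame
import Cfsg.Agent.OrthSmall.Five
import Cfsg.Agent.C3Derange.Common
import Cfsg.Agent.Classical.PrimeDerangement.Sympl.Group
import Cfsg.Agent.Eq.Def_GeometricClasses

/-!
The normaliser in `Sp₄(p)` of an absolutely irreducible group of symplectic type of order thirty-two is
maximal: it is the preimage of a frame stabiliser in `Ω₅(p)`.
-/

set_option autoImplicit false
set_option linter.unusedSectionVars false

namespace CfsgLib.SpC6Four90

open Matrix CfsgLib.OrthSmall CfsgLib.OrthGeo CfsgLib.Classical.Orth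

variable {F : Type*} [Field F] [Fintype F]

/-- The symplectic group on the five-dimensional space, inside the general linear group. -/
noncomputable def phiFive (h2 : (2 : F) ≠ 0) : Matrix.symplecticGroup (Fin 2) F →* GL I5 F :=
  MonoidHom.toHomUnits (spFive h2)

theorem coe_phiFive (h2 : (2 : F) ≠ 0) (g : Matrix.symplecticGroup (Fin 2) F) :
    (phiFive h2 g : Matrix I5 I5 F) = spFive h2 g := rfl

theorem phiFive_facts (hodd : Odd (Fintype.card F)) (h2 : (2 : F) ≠ 0) :
    (phiFive h2).range = Cfsg.Geo.omegaGL (Cfsg.quadFormOdd 2 F) ∧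
      ∀ g, phiFive h2 g = 1 ↔ ((g : Matrix (Fin 2 ⊕ Fin 2) (Fin 2 ⊕ Fin 2) F) = 1 ∨
        (g : Matrix (Fin 2 ⊕ Fin 2) (Fin 2 ⊕ Fin 2) F) = -1) := by
  classical
  have hq3 : 3 ≤ Fintype.card F := by
    have := Fintype.one_lt_card (α := F)
    obtain ⟨k, hk⟩ := hodd
    omega
  have hperf := CfsgLib.Classical.Symp.commutator_eq_top (F := F) (m := 2) (Or.inr (Or.inl ⟨rfl, hq3⟩))
  have hne : phiFive h2 ≠ 1 := by
    intro h
    have h1 : spFive h2 (SymplecticGroup.symJ (Fin 2) F) = 1 :=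
      congrArg (fun x : GL I5 F => x.val) (DFunLike.congr_fun h (SymplecticGroup.symJ (Fin 2) F))
    have e := congrFun (congrFun (congrArg mat6 (emb5_spFive h2 (SymplecticGroup.symJ (Fin 2) F)
      (Pi.single (.inr (.inl 0)) 1))) 0) 1
    rw [h1, one_mulVec, mat6_klein] at e
    simp [mat6, emb5, spMat, SymplecticGroup.symJ, Matrix.J, Matrix.fromBlocks, Matrix.mul_apply,
      Fin.sum_univ_four, finSumFinEquiv, Fin.addCases] at e
  have hneg : ∀ g : Matrix.symplecticGroup (Fin 2) F,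
      (g : Matrix (Fin 2 ⊕ Fin 2) (Fin 2 ⊕ Fin 2) F) = -1 → phiFive h2 g = 1 := by
    intro g hg
    refine Units.ext ((coe_phiFive h2 g).trans ?_)
    have h1 : spMat g = -1 := by
      ext i j
      simp [spMat, hg, Matrix.one_apply]
    refine Matrix.toLin'.injective (LinearMap.ext fun v => ?_)
    simp only [Matrix.toLin'_apply, Units.val_one, Matrix.one_mulVec]
    apply Function.LeftInverse.injective proj5_emb5
    rw [emb5_spFive, h1]
    apply mat6_injective
    rw [mat6_klein]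
    simp
  have hker : ∀ g, phiFive h2 g = 1 ↔ ((g : Matrix (Fin 2 ⊕ Fin 2) (Fin 2 ⊕ Fin 2) F) = 1 ∨
      (g : Matrix (Fin 2 ⊕ Fin 2) (Fin 2 ⊕ Fin 2) F) = -1) := by
    intro g
    refine ⟨fun hg => ?_, fun hg => ?_⟩
    · rcases CfsgLib.Classical.Symp.le_center_or_eq_top hperf (phiFive h2).ker with h | h
      · exact CfsgLib.Classical.Symp.mem_center_iff.1 (h hg)
      · exact absurd (MonoidHom.ext fun x => MonoidHom.mem_ker.1 (h ▸ Subgroup.mem_top x)) hne
    · rcases hg with hg | hg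
      · rw [show g = 1 from Subtype.ext hg, map_one]
      · exact hneg g hg
  refine ⟨?_, hker⟩
  set Q := Cfsg.quadFormOdd 2 F with hQdef
  have hN := isNondegenerateQuadraticForm_quadFormOdd (F := F) 2 h2
  let f : Matrix.symplecticGroup (Fin 2) F →* Cfsg.isometryGroup F Q :=
    (phiFive h2).codRestrict _ fun g => fun u _ => by
      exact spFive_preserves h2 hperf g u
  have hmem : ∀ s, f s ∈ Cfsg.Omega F Q := by
    intro s
    have h : Subgroup.map f (commutator (Matrix.symplecticGroup (Fin 2) F)) ≤ Cfsg.Omega F Q := by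
      simp only [commutator_def, Subgroup.map_commutator]
      exact Subgroup.commutator_mono le_top le_top
    exact h (Subgroup.mem_map_of_mem f (hperf ▸ Subgroup.mem_top s))
  have hle : (phiFive h2).range ≤ Cfsg.Geo.omegaGL Q := by
    rintro _ ⟨s, rfl⟩
    exact ⟨f s, hmem s, rfl⟩
  refine Subgroup.eq_of_le_of_card_ge hle ?_
  have hn : 5 ≤ Fintype.card I5 := by simp
  have hno : ¬ ∃ g : ↥(Cfsg.isometryGroup F Q), g ∈ Cfsg.Omega F Q ∧
      ((g : GL I5 F) : Matrix I5 I5 F) = -1 := by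
    rintro ⟨g, hg, hv⟩
    have h1 := CfsgLib.OrthGeo.OddInvolutions.det_of_mem_omegaGL (Q := Q) (g := (g : GL I5 F)) ⟨g, hg, rfl⟩
    rw [hv, Matrix.det_neg, Matrix.det_one, mul_one, Odd.neg_one_pow ⟨2, by simp⟩] at h1
    exact h2 (by linear_combination -h1)
  have hz := (card_center_omega hN hn).1 (Or.inl hno)
  have h5 := card_pomega_odd_of_two_le (F := F) rfl hodd 2 le_rfl
  rw [← hQdef] at h5
  have hΩ : Nat.card (Cfsg.Geo.omegaGL Q) = Nat.card (Cfsg.POmega F Q) := by
    rw [Cfsg.Geo.omegaGL, Subgroup.card_map_of_injective (Subgroup.subtype_injective _)]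
    have := Subgroup.card_eq_card_quotient_mul_card_subgroup (Subgroup.center (Cfsg.Omega F Q))
    rwa [hz, mul_one] at this
  have hk2 : Nat.card (phiFive h2).ker ≤ 2 := by
    have h1 : (phiFive h2).ker ≤ Subgroup.center _ := fun g hg =>
      CfsgLib.Classical.Symp.mem_center_iff.2 ((hker g).1 hg)
    have h3 := Subgroup.card_le_of_le h1
    rwa [CfsgLib.Classical.Symp.card_center_of_two_ne_zero (by norm_num) h2] at h3
  have hS := Subgroup.card_eq_card_quotient_mul_card_subgroup (phiFive h2).ker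
  rw [Nat.card_congr (QuotientGroup.quotientKerEquivRange (phiFive h2)).toEquiv,
    CfsgLib.Classical.Symp.card_symplecticGroup, ← h5, ← hΩ] at hS
  refine Nat.le_of_mul_le_mul_left ?_ two_pos
  exact hS.le.trans ((Nat.mul_le_mul (le_refl (Nat.card (phiFive h2).range)) hk2).trans_eq (mul_comm _ _))

/-- The normaliser in the symplectic group of a group of symplectic type of order 32 is maximal. -/
theorem symplecticType_isMaximal (hp : (Fintype.card F).Prime) (hodd : Odd (Fintype.card F))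
    (R : Subgroup (GL (Fin 2 ⊕ Fin 2) F)) (hR : Cfsg.Geo.IsSymplecticTypeGroup 2 R)
    (hirr : Cfsg.Geo.ActsAbsolutelyIrreducibly (Cfsg.Geo.matrixSet R)) (hRS : R ≤ Cfsg.spGL 2 F)
    (hcard : Nat.card R = 32) (hZ : Nat.card (Subgroup.center R) = 2) :
    Cfsg.Geo.IsMaximalIn (Cfsg.spGL 2 F) (Cfsg.Geo.subgroupNormalizer R ⊓ Cfsg.spGL 2 F) := by
  classical
  have h2 : (2 : F) ≠ 0 := CfsgLib.SL2.two_ne_zero_iff_odd.2 hodd
  obtain ⟨hrange, hker⟩ := phiFive_facts hodd h2
  set φ := phiFive h2 with hφ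
  set σ := CfsgLib.C3Derange.spHom 2 F with hσ
  have hσi : Function.Injective σ := CfsgLib.C3Derange.spHom_injective
  have hσr : σ.range = Cfsg.spGL 2 F := CfsgLib.C3Derange.range_spHom
  have hdata := CfsgLib.Classical.PrimeDerangement.Sympl.data_of hR hirr
  -- minus one lies in the group
  obtain ⟨z, hzR, hzval⟩ : ∃ z : GL (Fin 2 ⊕ Fin 2) F, z ∈ R ∧
      (z : Matrix (Fin 2 ⊕ Fin 2) (Fin 2 ⊕ Fin 2) F) = -1 := by
    have : Nontrivial (Subgroup.center R) := Finite.one_lt_card_iff_nontrivial.1 (by rw [hZ]; norm_num)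
    obtain ⟨⟨z, hz⟩, hz1⟩ := exists_ne (1 : Subgroup.center R)
    obtain ⟨c, hc⟩ := hdata.scalar ((z : GL (Fin 2 ⊕ Fin 2) F) : Matrix (Fin 2 ⊕ Fin 2) (Fin 2 ⊕ Fin 2) F)
      fun x hx => by
        have := congrArg (fun t : R => ((t : GL (Fin 2 ⊕ Fin 2) F) : Matrix (Fin 2 ⊕ Fin 2) (Fin 2 ⊕ Fin 2) F))
          (Subgroup.mem_center_iff.1 hz ⟨x, hx⟩)
        simpa using this.symm
    refine ⟨z, z.2, ?_⟩
    have hzz : z * z = 1 := by
      have h := pow_card_eq_one' (x := (⟨z, hz⟩ : Subgroup.center R))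
      rw [hZ, pow_two] at h
      exact congrArg Subtype.val h
    have e := congrArg (fun t : R => ((t : GL (Fin 2 ⊕ Fin 2) F) : Matrix (Fin 2 ⊕ Fin 2) (Fin 2 ⊕ Fin 2) F)) hzz
    simp only [Subgroup.coe_mul, Units.val_mul, hc, Subgroup.coe_one, Units.val_one, smul_mul_assoc, mul_smul_comm,
      one_mul, smul_smul] at e
    have ec : c * c = 1 := by simpa using congrFun (congrFun e (Sum.inl 0)) (Sum.inl 0)
    rcases mul_self_eq_one_iff.1 ec with rfl | rfl
    · exact absurd (Subtype.ext (Subtype.ext (Units.ext (by rw [hc, one_smul]; rfl)))) hz1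
    · rw [hc, neg_one_smul]
  set R0 := R.comap σ with hR0
  have hR0mem : ∀ s, s ∈ R0 ↔ σ s ∈ R := fun s => Iff.rfl
  have hker0 : ∀ s, φ s = 1 → s ∈ R0 := by
    intro s hs
    rw [hR0mem]
    rcases (hker s).1 hs with h | h
    · rw [show σ s = 1 from Units.ext h]; exact one_mem _
    · rw [show σ s = z from Units.ext (h.trans hzval.symm)]; exact hzR
  have hR0card : Nat.card R0 = 32 := by
    rw [← hcard]
    refine Nat.card_congr (Equiv.ofBijective (fun s => (⟨σ s.1, s.2⟩ : R)) ⟨fun a b h => ?_, fun x => ?_⟩)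
    · exact Subtype.ext (hσi (congrArg Subtype.val h))
    · obtain ⟨s, hs⟩ : (x : GL (Fin 2 ⊕ Fin 2) F) ∈ σ.range := hσr ▸ hRS x.2
      exact ⟨⟨s, by rw [hR0mem, hs]; exact x.2⟩, Subtype.ext hs⟩
  set E := R0.map φ with hE
  have hEΩ : E ≤ Cfsg.Geo.omegaGL (Cfsg.quadFormOdd 2 F) := hrange ▸ Subgroup.map_le_range φ R0
  have hEsq : ∀ x ∈ E, x * x = 1 := by
    rintro _ ⟨s, hs, rfl⟩
    rw [← map_mul, hker]
    exact hdata.sq _ hs
  have hEcard : Nat.card E = 16 := by
    have h1 := Subgroup.card_eq_card_quotient_mul_card_subgroup (φ.comp R0.subtype).ker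
    rw [Nat.card_congr (QuotientGroup.quotientKerEquivRange (φ.comp R0.subtype)).toEquiv, hR0card,
      MonoidHom.range_comp, Subgroup.range_subtype] at h1
    have h2' : Nat.card (φ.comp R0.subtype).ker = Nat.card φ.ker := by
      refine Nat.card_congr (Equiv.ofBijective
        (fun s => (⟨s.1.1, s.2⟩ : φ.ker)) ⟨fun a b h => ?_, fun x => ?_⟩)
      · exact Subtype.ext (Subtype.ext (congrArg Subtype.val h :))
      · exact ⟨⟨⟨x.1, hker0 _ x.2⟩, x.2⟩, rfl⟩
    have h3 : Nat.card φ.ker = 2 := by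
      have : φ.ker = Subgroup.center (Matrix.symplecticGroup (Fin 2) F) :=
        Subgroup.ext fun g => (hker g).trans CfsgLib.Classical.Symp.mem_center_iff.symm
      rw [this, CfsgLib.Classical.Symp.card_center_of_two_ne_zero (by norm_num) h2]
    rw [h2', h3] at h1
    change 32 = Nat.card E * 2 at h1
    omega
  have hmax := normalizer_sixteen_isMaximal (CfsgLib.OrthGeo.isNondegenerateQuadraticForm_quadFormOdd 2 h2) hp h2
    (by simp) E hEΩ hEsq hEcard
  have hNiff : ∀ s, φ s ∈ Subgroup.normalizer (E : Set (GL I5 F)) ↔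
      σ s ∈ Cfsg.Geo.subgroupNormalizer R := by
    intro s
    have key : ∀ r, φ r ∈ E ↔ r ∈ R0 := fun r => by
      refine ⟨?_, fun h => ⟨r, h, rfl⟩⟩
      rintro ⟨r', hr', e⟩
      have h1 : φ (r'⁻¹ * r) = 1 := by rw [map_mul, map_inv, e, inv_mul_cancel]
      simpa using mul_mem hr' (hker0 _ h1)
    rw [Subgroup.mem_normalizer_iff]
    show _ ↔ σ s ∈ Subgroup.normalizer (R : Set (GL (Fin 2 ⊕ Fin 2) F))
    rw [Subgroup.mem_normalizer_iff]
    constructor
    · intro h x
      constructor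
      · intro hx
        obtain ⟨r, rfl⟩ : x ∈ σ.range := hσr ▸ hRS hx
        rw [← map_inv, ← map_mul, ← map_mul, ← hR0mem, ← key, map_mul, map_mul, map_inv]
        exact (h (φ r)).1 ((key r).2 hx)
      · intro hx
        obtain ⟨r, hr⟩ : σ s * x * (σ s)⁻¹ ∈ σ.range := hσr ▸ hRS hx
        have hxeq : x = σ (s⁻¹ * r * s) := by rw [map_mul, map_mul, map_inv, hr]; group
        rw [hxeq, ← hR0mem, ← key, map_mul, map_mul, map_inv]
        refine (h _).2 ?_
        rw [show φ s * ((φ s)⁻¹ * φ r * φ s) * (φ s)⁻¹ = φ r by group, key, hR0mem, hr]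
        exact hx
    · intro h x
      constructor
      · rintro ⟨r, hr, rfl⟩
        rw [← map_inv, ← map_mul, ← map_mul, key, hR0mem, map_mul, map_mul, map_inv]
        exact (h _).1 hr
      · rintro ⟨r, hr, e⟩
        have hxeq : x = φ (s⁻¹ * r * s) := by rw [map_mul, map_mul, map_inv, e]; group
        rw [hxeq, key, hR0mem, map_mul, map_mul, map_inv]
        refine (h _).2 ?_
        rw [show σ s * ((σ s)⁻¹ * σ r * σ s) * (σ s)⁻¹ = σ r by group]
        exact hr
  obtain ⟨hlt, hmax'⟩ := hmax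
  refine ⟨lt_of_le_not_ge inf_le_right fun hle => ?_, fun M hPM hMS => ?_⟩
  · refine not_le_of_gt hlt fun y hy => ⟨?_, hy⟩
    obtain ⟨s, rfl⟩ : y ∈ φ.range := hrange ▸ hy
    exact (hNiff s).2 (hle (hσr ▸ ⟨s, rfl⟩ : σ s ∈ Cfsg.spGL 2 F)).1
  · have hge : Subgroup.normalizer (E : Set (GL I5 F)) ⊓ Cfsg.Geo.omegaGL (Cfsg.quadFormOdd 2 F) ≤
        (M.comap σ).map φ := by
      rintro y ⟨hyN, hyΩ⟩
      obtain ⟨s, rfl⟩ : y ∈ φ.range := hrange ▸ hyΩ
      exact ⟨s, hPM ⟨(hNiff s).1 hyN, hσr ▸ ⟨s, rfl⟩⟩, rfl⟩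
    have hkM : ∀ s, φ s = 1 → s ∈ M.comap σ := fun s hs => by
      refine hPM ⟨?_, hσr ▸ ⟨s, rfl⟩⟩
      exact (hNiff s).1 (by rw [hs]; exact one_mem _)
    rcases hmax' _ hge (hrange ▸ Subgroup.map_le_range φ _) with h | h
    · left
      refine le_antisymm (fun g hg => ⟨?_, hMS hg⟩) hPM
      obtain ⟨s, rfl⟩ : g ∈ σ.range := hσr ▸ hMS hg
      exact (hNiff s).1 (h.le ⟨s, hg, rfl⟩).1
    · right
      refine le_antisymm hMS fun g hg => ?_
      obtain ⟨s, rfl⟩ : g ∈ σ.range := hσr ▸ hg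
      obtain ⟨t, ht, e⟩ := h.ge (hrange ▸ ⟨s, rfl⟩ : φ s ∈ Cfsg.Geo.omegaGL (Cfsg.quadFormOdd 2 F))
      have h1 : φ (t⁻¹ * s) = 1 := by rw [map_mul, map_inv, e, inv_mul_cancel]
      have := mul_mem ht (hkM _ h1)
      rwa [mul_inv_cancel_left] at this

end CfsgLib.SpC6Four90
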