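import Cfsg.Agent.SpC6Four90.FiveThree
import Cfsg.Agent.Classical.Orth.Omega

/-!
An elementary abelian group of order sixteen in Omega of a five-dimensional orthogonal space over a prime
field is the group of even sign changes of an orthogonal frame, and its normaliser in Omega is maximal.
-/

set_option autoImplicit false
set_option linter.unusedSectionVars false

namespace CfsgLib.SpC6Four90

open Cfsg.Geo Module CfsgLib.OrthGeo
open scoped Matrix MatrixGroups

variable {ι : Type} [Fintype ι] [DecidableEq ι] {F : Type*} [Field F] [Fintype F]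
variable {Q : (ι → F) → F} (hQ : IsNondegenerateQuadraticForm Q)

include hQ

lemma exists_aniso_of_radfree (h2 : (2 : F) ≠ 0) {U : Submodule F (ι → F)} (hU : U ≠ ⊥)
    (hr : ∀ x ∈ U, x ∈ perp hQ U → x = 0) : ∃ v ∈ U, Q v ≠ 0 := by
  by_contra h
  push Not at h
  obtain ⟨x, hx, hx0⟩ := Submodule.exists_mem_ne_zero_of_ne_bot hU
  refine hx0 (hr x hx fun y hy => ?_)
  have h1 := q_add hQ y x
  rw [h y hy, h x hx, h _ (U.add_mem hy hx)] at h1
  linear_combination -h1

lemma exists_common_subspace (h2 : (2 : F) ≠ 0) (E : Subgroup (GL ι F)) (hEI : E ≤ Cfsg.isometryGroup F Q)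
    (hsq : ∀ x ∈ E, x * x = 1) {W : Submodule F (ι → F)} (hW0 : W ≠ ⊥)
    (hWr : ∀ x ∈ W, x ∈ perp hQ W → x = 0) (hWinv : ∀ e ∈ E, ∀ x ∈ W, (e : Matrix ι ι F) *ᵥ x ∈ W)
    (L : List (GL ι F)) (hL : ∀ e ∈ L, e ∈ E) :
    ∃ U : Submodule F (ι → F), U ≤ W ∧ U ≠ ⊥ ∧ (∀ x ∈ U, x ∈ perp hQ U → x = 0) ∧
      (∀ e ∈ E, ∀ x ∈ U, (e : Matrix ι ι F) *ᵥ x ∈ U) ∧
      ∀ e ∈ L, ∃ s : F, (s = 1 ∨ s = -1) ∧ ∀ x ∈ U, (e : Matrix ι ι F) *ᵥ x = s • x := by
  have hcomm : ∀ a ∈ E, ∀ b ∈ E, a * b = b * a := fun a ha b hb => by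
    have ia : a⁻¹ = a := inv_eq_of_mul_eq_one_right (hsq a ha)
    have ib : b⁻¹ = b := inv_eq_of_mul_eq_one_right (hsq b hb)
    have iab : (a * b)⁻¹ = a * b := inv_eq_of_mul_eq_one_right (hsq _ (mul_mem ha hb))
    rw [mul_inv_rev, ia, ib] at iab
    exact iab.symm
  induction L with
  | nil => exact ⟨W, le_rfl, hW0, hWr, hWinv, fun e he => absurd he (List.not_mem_nil)⟩
  | cons e L ih =>
    obtain ⟨U, hUW, hU0, hUr, hUinv, hUs⟩ := ih fun x hx => hL x (List.mem_cons_of_mem _ hx)
    have heE := hL e List.mem_cons_self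
    have hee : ∀ x, (e : Matrix ι ι F) *ᵥ ((e : Matrix ι ι F) *ᵥ x) = x := fun x => by
      rw [Matrix.mulVec_mulVec, ← Units.val_mul, hsq e heE, Units.val_one, Matrix.one_mulVec]
    let V : F → Submodule F (ι → F) := fun s => U ⊓ LinearMap.ker (Matrix.mulVecLin (e : Matrix ι ι F) - s • LinearMap.id)
    have hV : ∀ s x, x ∈ V s ↔ x ∈ U ∧ (e : Matrix ι ι F) *ᵥ x = s • x := fun s x => by
      simp [V, sub_eq_zero]
    obtain ⟨s, hs, hs0⟩ : ∃ s : F, (s = 1 ∨ s = -1) ∧ V s ≠ ⊥ := by
      obtain ⟨x, hx, hx0⟩ := Submodule.exists_mem_ne_zero_of_ne_bot hU0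
      by_cases h : x + (e : Matrix ι ι F) *ᵥ x = 0
      · refine ⟨-1, Or.inr rfl, fun hb => hx0 ((Submodule.eq_bot_iff _).1 hb x ((hV _ _).2 ⟨hx, ?_⟩))⟩
        rw [neg_one_smul]
        exact eq_neg_of_add_eq_zero_right h
      · refine ⟨1, Or.inl rfl, fun hb => h ((Submodule.eq_bot_iff _).1 hb _ ((hV _ _).2
          ⟨U.add_mem hx (hUinv e heE x hx), ?_⟩))⟩
        rw [Matrix.mulVec_add, hee, one_smul, add_comm]
    have hss : s * s = 1 := by rcases hs with rfl | rfl <;> ring
    refine ⟨V s, inf_le_left.trans hUW, hs0, fun x hx hxp => ?_, fun g hg x hx => ?_, fun g hg => ?_⟩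
    · obtain ⟨hxU, hxe⟩ := (hV _ _).1 hx
      refine hUr x hxU fun y hy => ?_
      have h1 : y + s • ((e : Matrix ι ι F) *ᵥ y) ∈ V s := (hV _ _).2
        ⟨U.add_mem hy (U.smul_mem _ (hUinv e heE y hy)), by
          rw [Matrix.mulVec_add, Matrix.mulVec_smul, hee, smul_add, smul_smul, hss, one_smul, add_comm]⟩
      have h3 : bform hQ ((e : Matrix ι ι F) *ᵥ y) x = s * bform hQ y x := by
        have h4 := isometry_b hQ (hEI heE) y x
        rw [hxe, map_smul, smul_eq_mul] at h4
        linear_combination s * h4 - bform hQ ((e : Matrix ι ι F) *ᵥ y) x * hss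
      have h5 := hxp _ h1
      rw [map_add, LinearMap.add_apply, map_smul, LinearMap.smul_apply, h3,
        smul_eq_mul, ← mul_assoc, hss, one_mul, ← two_mul] at h5
      exact (mul_eq_zero.1 h5).resolve_left h2
    · obtain ⟨hxU, hxe⟩ := (hV _ _).1 hx
      refine (hV _ _).2 ⟨hUinv g hg x hxU, ?_⟩
      rw [Matrix.mulVec_mulVec, ← Units.val_mul, hcomm e heE g hg, Units.val_mul, ← Matrix.mulVec_mulVec, hxe,
        Matrix.mulVec_smul]
    · rcases List.mem_cons.1 hg with rfl | hg
      · exact ⟨s, hs, fun x hx => ((hV _ _).1 hx).2⟩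
      · obtain ⟨t, ht, h⟩ := hUs g hg
        exact ⟨t, ht, fun x hx => h x ((hV _ _).1 hx).1⟩

/-- An anisotropic common eigenvector. -/
lemma exists_common_eigen (h2 : (2 : F) ≠ 0) (E : Subgroup (GL ι F)) (hEI : E ≤ Cfsg.isometryGroup F Q)
    (hsq : ∀ x ∈ E, x * x = 1) {W : Submodule F (ι → F)} (hW0 : W ≠ ⊥)
    (hWr : ∀ x ∈ W, x ∈ perp hQ W → x = 0) (hWinv : ∀ e ∈ E, ∀ x ∈ W, (e : Matrix ι ι F) *ᵥ x ∈ W) :
    ∃ v ∈ W, Q v ≠ 0 ∧ ∀ e ∈ E, ∃ s : F, (s = 1 ∨ s = -1) ∧ (e : Matrix ι ι F) *ᵥ v = s • v := by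
  classical
  haveI : Fintype E := Fintype.ofFinite _
  obtain ⟨U, hUW, hU0, hUr, -, hUs⟩ := exists_common_subspace hQ h2 E hEI hsq hW0 hWr hWinv
    ((Finset.univ : Finset E).toList.map Subtype.val) (fun e he => by
      obtain ⟨x, -, rfl⟩ := List.mem_map.1 he; exact x.2)
  obtain ⟨v, hv, hvQ⟩ := exists_aniso_of_radfree hQ h2 hU0 hUr
  refine ⟨v, hUW hv, hvQ, fun e he => ?_⟩
  obtain ⟨s, hs, h⟩ := hUs e (List.mem_map.2 ⟨⟨e, he⟩, by simp, rfl⟩)
  exact ⟨s, hs, h v hv⟩

/-- Orthogonal anisotropic common eigenvectors. -/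
lemma exists_common_family (h2 : (2 : F) ≠ 0) (E : Subgroup (GL ι F)) (hEI : E ≤ Cfsg.isometryGroup F Q)
    (hsq : ∀ x ∈ E, x * x = 1) : ∀ k, k ≤ Fintype.card ι → ∃ v : Fin k → (ι → F),
      (∀ i, Q (v i) ≠ 0) ∧ (∀ i j, i ≠ j → bform hQ (v i) (v j) = 0) ∧
      ∀ i, ∀ e ∈ E, ∃ s : F, (s = 1 ∨ s = -1) ∧ (e : Matrix ι ι F) *ᵥ v i = s • v i := by
  intro k
  induction k with
  | zero => exact fun _ => ⟨Fin.elim0, fun i => i.elim0, fun i => i.elim0, fun i => i.elim0⟩
  | succ k ih =>
    intro hk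
    obtain ⟨v, hvQ, hvo, hve⟩ := ih (by omega)
    set S := Submodule.span F (Set.range v) with hS
    have hmem : ∀ x, x ∈ perp hQ S ↔ ∀ i, bform hQ (v i) x = 0 := fun x => by
      refine ⟨fun h i => h _ (Submodule.subset_span ⟨i, rfl⟩), fun h y hy => ?_⟩
      induction hy using Submodule.span_induction with
      | mem y hy => obtain ⟨i, rfl⟩ := hy; exact h i
      | zero => simp
      | add a b _ _ ha hb =>
          rw [map_add, LinearMap.add_apply, ha, hb, add_zero]
      | smul c a _ ha =>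
          rw [map_smul, LinearMap.smul_apply, ha, smul_zero]
    obtain ⟨w, hw, hwQ, hwe⟩ := exists_common_eigen hQ h2 E hEI hsq (W := perp hQ S) (by
      intro h0
      have h1 := finrank_perp_add hQ S
      rw [h0, finrank_bot] at h1
      have h3 : finrank F S ≤ k := (finrank_range_le_card v).trans (by simp)
      omega) (fun x hx hxp => by
      rw [perp_perp hQ, hS, Submodule.mem_span_range_iff_exists_fun] at hxp
      obtain ⟨c, rfl⟩ := hxp
      refine Finset.sum_eq_zero fun i _ => ?_
      have h1 := (hmem _).1 hx i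
      rw [map_sum, Finset.sum_eq_single i (fun j _ hj => by rw [map_smul, hvo i j (Ne.symm hj), smul_zero])
        (fun h => absurd (Finset.mem_univ i) h), map_smul, smul_eq_mul, b_self hQ] at h1
      rw [(mul_eq_zero.1 h1).resolve_right (mul_ne_zero h2 (hvQ i)), zero_smul])
      (fun e he x hx => (hmem _).2 fun i => by
        obtain ⟨s, hs, hes⟩ := hve i e he
        have h1 := isometry_b hQ (hEI he) (v i) x
        rw [hes, map_smul, LinearMap.smul_apply, (hmem x).1 hx i, smul_eq_mul] at h1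
        refine (mul_eq_zero.1 h1).resolve_left ?_
        rcases hs with rfl | rfl <;> simp)
    refine ⟨Fin.cons w v, Fin.cases hwQ hvQ, ?_, Fin.cases hwe hve⟩
    intro i j hij
    induction i using Fin.cases with
    | zero =>
      induction j using Fin.cases with
      | zero => exact absurd rfl hij
      | succ j => simp only [Fin.cons_zero, Fin.cons_succ]; rw [b_symm hQ]; exact (hmem w).1 hw j
    | succ i =>
      induction j using Fin.cases with
      | zero => simp only [Fin.cons_zero, Fin.cons_succ]; exact (hmem w).1 hw i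
      | succ j => simp only [Fin.cons_succ]; exact hvo i j fun h => hij (by rw [h])

/-- The frame stabiliser is maximal in dimension five over every prime field of odd order. -/
theorem frame_five_isMaximal (hp : (Fintype.card F).Prime) (h2 : (2 : F) ≠ 0)
    (hι : Fintype.card ι = 5) {t : ℕ} {D : Fin t → Submodule F (ι → F)}
    (hD : IsOrthogonalMDecomposition Q 1 D) :
    IsMaximalIn (omegaGL Q) (decompositionStabilizer D ⊓ omegaGL Q) := by
  by_cases h3 : (3 : F) = 0
  swap
  · exact OrthMono17.frame_isMaximal hQ hp h2 (by rw [hι]; decide) (by omega) (fun _ => h3) hD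
  classical
  have hq : Fintype.card F = 3 := OrthMono17.Frame.card_eq_three_of hp h3
  obtain ⟨𝔉, hfr⟩ := OrthMono17.exists_frame hQ h2 hD
  have ht : t = Fintype.card ι := by
    rw [← Fintype.card_fin t, ← Module.finrank_eq_card_basis 𝔉.basis, finrank_fintype_fun_eq_card]
  have hmono : ∀ g ∈ omegaGL Q, g ∈ decompositionStabilizer D ↔ 𝔉.Mono Finset.univ g := by
    intro g hg
    have hgI := omegaGL_le hg
    constructor
    · rintro ⟨σ, hσ⟩ i -
      have h : (g : Matrix ι ι F) *ᵥ 𝔉.basis i ∈ D (σ i) := by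
        rw [← hσ i]
        exact ⟨𝔉.basis i, by rw [hfr i]; exact Submodule.mem_span_singleton_self _, Matrix.toLin'_apply _ _⟩
      rw [hfr] at h
      obtain ⟨c, hc⟩ := Submodule.mem_span_singleton.1 h
      exact ⟨σ i, Finset.mem_univ _, c, hc.symm⟩
    · intro h
      choose σ _ c hc using fun i => h i (Finset.mem_univ i)
      have hc0 : ∀ i, c i ≠ 0 := fun i h0 => by
        have h1 := 𝔉.dot_isometry hgI (𝔉.basis i) (𝔉.basis i)
        rw [hc, h0, zero_smul] at h1
        simp at h1
      have hinj : Function.Injective σ := by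
        intro i j hij
        by_contra hne
        have h1 := 𝔉.dot_isometry hgI (𝔉.basis i) (𝔉.basis j)
        rw [hc, hc, hij] at h1
        simp [OrthMono17.Frame.co_basis_ne (h := hne), hc0, OrthMono17.Frame.co_basis_ne (h := Ne.symm hne)] at h1
      refine ⟨Equiv.ofBijective σ (Finite.injective_iff_bijective.1 hinj), fun i => ?_⟩
      rw [hfr i, Equiv.ofBijective_apply, hfr (σ i), Submodule.map_span, Set.image_singleton, Matrix.toLin'_apply,
        hc, Submodule.span_singleton_smul_eq (isUnit_iff_ne_zero.2 (hc0 i))]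
  refine ⟨lt_of_le_of_ne inf_le_right fun he => ?_, fun M hMle hMΩ => ?_⟩
  · haveI : NeZero t := ⟨by omega⟩
    obtain ⟨a, b, c, d, hab, hac, had, hbc, hbd, hcd⟩ : ∃ a b c d : Fin t,
        a ≠ b ∧ a ≠ c ∧ a ≠ d ∧ b ≠ c ∧ b ≠ d ∧ c ≠ d :=
      ⟨⟨0, by omega⟩, ⟨1, by omega⟩, ⟨2, by omega⟩, ⟨3, by omega⟩, by simp, by simp, by simp, by simp, by simp,
        by simp⟩
    set v := 𝔉.basis a + 𝔉.basis b + 𝔉.basis c + 𝔉.basis d with hv
    have hvv : 𝔉.dot v v = 1 := by
      simp [hv, OrthMono17.Frame.co_basis_ne (h := hab), OrthMono17.Frame.co_basis_ne (h := hab.symm),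
        OrthMono17.Frame.co_basis_ne (h := hac), OrthMono17.Frame.co_basis_ne (h := hac.symm),
        OrthMono17.Frame.co_basis_ne (h := had), OrthMono17.Frame.co_basis_ne (h := had.symm),
        OrthMono17.Frame.co_basis_ne (h := hbc), OrthMono17.Frame.co_basis_ne (h := hbc.symm),
        OrthMono17.Frame.co_basis_ne (h := hbd), OrthMono17.Frame.co_basis_ne (h := hbd.symm),
        OrthMono17.Frame.co_basis_ne (h := hcd), OrthMono17.Frame.co_basis_ne (h := hcd.symm)]
      linear_combination h3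
    have hQv : Q v = 𝔉.lam := by rw [𝔉.q_eq, hvv, mul_one]
    obtain ⟨g, hg, hgv⟩ := exists_map_value hQ (by omega) (a := 𝔉.basis a) (a' := v) (𝔉.basis.ne_zero a)
      (fun h => 𝔉.lam_ne (by rw [← hQv, h, q_zero hQ])) (by rw [hQv, 𝔉.q_basis])
    have hgΩ : g ∈ omegaGL Q := eichlerGroup_le_omega hQ (by omega) hg
    obtain ⟨j, -, e, hj⟩ := (hmono g hgΩ).1 (he.symm.le hgΩ).1 a (Finset.mem_univ _)
    rw [hgv] at hj
    have ha' := congrArg (fun x => 𝔉.co x a) hj
    have hb' := congrArg (fun x => 𝔉.co x b) hj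
    simp [hv, OrthMono17.Frame.co_basis_ne (h := hab), OrthMono17.Frame.co_basis_ne (h := hab.symm),
      OrthMono17.Frame.co_basis_ne (h := hac.symm), OrthMono17.Frame.co_basis_ne (h := had.symm),
      OrthMono17.Frame.co_basis_ne (h := hbc.symm), OrthMono17.Frame.co_basis_ne (h := hbd.symm)] at ha' hb'
    by_cases hja : j = a
    · rw [OrthMono17.Frame.co_basis_ne (h := (hja ▸ hab : j ≠ b)), mul_zero] at hb'
      exact one_ne_zero hb'
    · rw [OrthMono17.Frame.co_basis_ne (h := hja), mul_zero] at ha'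
      exact one_ne_zero ha'
  · by_cases hM : ∀ g ∈ M, 𝔉.Mono Finset.univ g
    · exact Or.inl (le_antisymm (fun g hg => ⟨(hmono g (hMΩ hg)).2 (hM g hg), hMΩ hg⟩) hMle)
    · refine Or.inr (le_antisymm hMΩ ?_)
      exact OrthMono17.Frame.omegaGL_le_five_three hq (by rw [Fintype.card_fin, ht, hι]) (by omega)
        (𝔉.data_of_stabilizer (by omega) hfr hMle hMΩ) hM

/-- The normaliser in Omega of an elementary abelian group of order sixteen is maximal. -/
theorem normalizer_sixteen_isMaximal (hp : (Fintype.card F).Prime) (h2 : (2 : F) ≠ 0) (hι : Fintype.card ι = 5)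
    (E : Subgroup (GL ι F)) (hEΩ : E ≤ omegaGL Q) (hsq : ∀ x ∈ E, x * x = 1) (hcard : Nat.card E = 16) :
    IsMaximalIn (omegaGL Q) (Subgroup.normalizer (E : Set (GL ι F)) ⊓ omegaGL Q) := by
  classical
  have hEI : E ≤ Cfsg.isometryGroup F Q := hEΩ.trans omegaGL_le
  have h1n : (1 : F) ≠ -1 := fun h => h2 (by linear_combination h)
  obtain ⟨v, hvQ, hvo, hve⟩ := exists_common_family hQ h2 E hEI hsq 5 hι.ge
  have hli : LinearIndependent F v := by
    rw [Fintype.linearIndependent_iff]
    intro c hc k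
    have := congrArg (bform hQ (v k)) hc
    rw [map_sum, map_zero, Finset.sum_eq_single k (fun j _ hj => by rw [map_smul, hvo k j (Ne.symm hj), smul_zero])
      (fun h => absurd (Finset.mem_univ k) h), map_smul, smul_eq_mul, b_self hQ] at this
    exact (mul_eq_zero.1 this).resolve_right (mul_ne_zero h2 (hvQ k))
  let b : Basis (Fin 5) F (ι → F) := basisOfLinearIndependentOfCardEqFinrank hli (by simp [hι])
  have hb : ∀ i, b i = v i := fun i => by simp [b]
  choose sg hsg hsge using hve
  have hext : ∀ g h : GL ι F, (∀ i, (g : Matrix ι ι F) *ᵥ v i = (h : Matrix ι ι F) *ᵥ v i) → g = h := by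
    intro g h hgh
    refine Units.ext ?_
    refine Matrix.toLin'.injective (b.ext fun i => ?_)
    simp only [Matrix.toLin'_apply, hb, hgh i]
  let mset : E → Finset (Fin 5) := fun e => Finset.univ.filter fun i => sg i e.1 e.2 = -1
  have hval : ∀ (e : E) i, (e.1 : Matrix ι ι F) *ᵥ v i = (if i ∈ mset e then (-1 : F) else 1) • v i := by
    intro e i
    rw [hsge i e.1 e.2]
    congr 1
    rcases hsg i e.1 e.2 with h | h
    · rw [if_neg (by simp [mset, h, h1n]), h]
    · rw [if_pos (by simp [mset, h]), h]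
  have hmi : Function.Injective mset := fun e e' h => Subtype.ext (hext _ _ fun i => by rw [hval, hval, h])
  have heven : ∀ e : E, Even (mset e).card := by
    intro e
    have hdet := OddInvolutions.det_of_mem_omegaGL (hEΩ e.2)
    rw [← LinearMap.det_toLin', ← LinearMap.det_toMatrix b] at hdet
    have hM : LinearMap.toMatrix b b (Matrix.toLin' (e.1 : Matrix ι ι F)) =
        Matrix.diagonal fun i => if i ∈ mset e then (-1 : F) else 1 := by
      ext i j
      rw [LinearMap.toMatrix_apply, Matrix.toLin'_apply, hb, hval, ← hb, map_smul, Basis.repr_self,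
        Finsupp.smul_single, smul_eq_mul, mul_one]
      by_cases hij : i = j
      · subst hij; simp
      · simp [hij, Finsupp.single_eq_of_ne hij]
    rw [hM, Matrix.det_diagonal, Finset.prod_ite, Finset.prod_const, Finset.prod_const, one_pow, mul_one,
      Finset.filter_univ_mem] at hdet
    rcases Nat.even_or_odd (mset e).card with h | h
    · exact h
    · rw [h.neg_one_pow] at hdet; exact absurd hdet.symm h1n
  have hall : ∀ T : Finset (Fin 5), Even T.card → ∃ e : E, mset e = T := by
    intro T hT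
    haveI : Fintype E := Fintype.ofFinite _
    have hle : (Finset.univ.image mset) = (Finset.univ : Finset (Fin 5)).powerset.filter (fun T => Even T.card) := by
      refine Finset.eq_of_subset_of_card_le (fun T hT => ?_) ?_
      · obtain ⟨e, -, rfl⟩ := Finset.mem_image.1 hT
        simp [heven e]
      · rw [Finset.card_image_of_injective _ hmi, Finset.card_univ, ← Nat.card_eq_fintype_card, hcard]
        decide
    obtain ⟨e, -, he⟩ := Finset.mem_image.1 (hle ▸ (by simp [hT]) : T ∈ Finset.univ.image mset)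
    exact ⟨e, he⟩
  have hpair : ∀ a c : Fin 5, a ≠ c → ∃ e : E, mset e = {a, c} := fun a c h =>
    hall _ (by rw [Finset.card_pair h]; decide)
  have hexc : ¬ (Nat.card F = 2 ∧ Fintype.card ι = 4) := fun h => by omega
  have hiso : ∀ a c : Fin 5, a ≠ c → IsSquare (Q (v a) * Q (v c)) := by
    intro a c hac
    obtain ⟨e, he⟩ := hpair a c hac
    obtain ⟨y, hy, hye⟩ := hEΩ e.2
    have key := (CfsgLib.Classical.Orth.mem_omega_iff_of_prod hQ hexc y [v a, v c] (by simp [hvQ]) ?_).1 hy
    · simpa using key.2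
    · rw [show ((y : GL ι F)) = e.1 from hye]
      refine Matrix.toLin'.injective (b.ext fun i => ?_)
      simp only [Matrix.toLin'_apply, hb, List.map_cons, List.map_nil, List.prod_cons, List.prod_nil, mul_one]
      show _ = (OddInvolutions.rr hQ (hvQ a) (hvQ c) : Matrix ι ι F) *ᵥ v i
      rw [hval, he]
      rw [OddInvolutions.rr_mulVec hQ (hvQ a) (hvQ c) (hvo a c hac)]
      by_cases hia : i = a
      · subst hia
        rw [hvo c i (Ne.symm hac), b_self hQ, if_pos (by simp)]
        have := hvQ i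
        match_scalars
        all_goals first | ring1 | (field_simp; ring)
      · by_cases hic : i = c
        · subst hic
          rw [hvo a i hac, b_self hQ, if_pos (by simp)]
          have := hvQ i
          match_scalars
          all_goals first | ring1 | (field_simp; ring)
        · rw [hvo a i (Ne.symm hia), hvo c i (Ne.symm hic), if_neg (by simp [hia, hic])]
          simp
  -- the decomposition
  set D : Fin 5 → Submodule F (ι → F) := fun i => Submodule.span F {v i} with hDdef
  have hvne : ∀ i, v i ≠ 0 := fun i h => hvQ i (by rw [h, q_zero hQ])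
  have hD : IsOrthogonalMDecomposition Q 1 D := by
    refine ⟨⟨⟨by norm_num, Nat.one_pos, fun i => finrank_span_singleton (hvne i), hli.iSupIndep_span_singleton,
      ?_⟩, fun i w hw hw0 => ?_, fun i j hij x hx y hy => ?_⟩, fun i j => ?_⟩
    · rw [hDdef, ← Submodule.span_range_eq_iSup, show v = ⇑b from funext fun i => (hb i).symm]
      exact b.span_eq
    · obtain ⟨c, rfl⟩ := Submodule.mem_span_singleton.1 hw
      have hc : c ≠ 0 := fun h => hw0 (by rw [h, zero_smul])
      constructor <;> refine ⟨v i, Submodule.mem_span_singleton_self _, ?_⟩ <;>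
        rw [← bform_apply hQ] <;> simp [b_self hQ, hc, hvQ i, h2]
    · obtain ⟨c, rfl⟩ := Submodule.mem_span_singleton.1 hx
      obtain ⟨c', rfl⟩ := Submodule.mem_span_singleton.1 hy
      rw [← bform_apply hQ]
      simp [hvo i j hij]
    · obtain ⟨k, hk0, hk⟩ : ∃ k : F, k ≠ 0 ∧ k ^ 2 * Q (v j) = Q (v i) := by
        by_cases hij : i = j
        · exact ⟨1, one_ne_zero, by rw [hij]; ring⟩
        obtain ⟨r, hr⟩ := hiso i j hij
        refine ⟨r / Q (v j), div_ne_zero (fun h => mul_ne_zero (hvQ i) (hvQ j) (by rw [hr, h, mul_zero])) (hvQ j), ?_⟩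
        have := hvQ j
        field_simp
        linear_combination -hr
      refine ⟨(LinearEquiv.toSpanNonzeroSingleton F _ (v i) (hvne i)).symm.trans
        ((LinearEquiv.smulOfUnit (Units.mk0 k hk0)).trans
          (LinearEquiv.toSpanNonzeroSingleton F _ (v j) (hvne j))), fun w => ?_⟩
      obtain ⟨c, rfl⟩ := (LinearEquiv.toSpanNonzeroSingleton F _ (v i) (hvne i)).surjective w
      simp only [LinearEquiv.trans_apply, LinearEquiv.symm_apply_apply]
      show Q ((k * c) • v j) = Q (c • v i)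
      rw [q_smul hQ, q_smul hQ, ← hk]; ring
  have hline : ∀ g : GL ι F, (∀ e ∈ E, g⁻¹ * e * g ∈ E) → ∀ i, ∃ j, ∃ c : F, c ≠ 0 ∧
      (g : Matrix ι ι F) *ᵥ v i = c • v j := by
    intro g hg i
    set x := (g : Matrix ι ι F) *ᵥ v i with hx
    have hx0 : x ≠ 0 := fun h => hvne i (by rw [← inv_mulVec_cancel g (v i), ← hx, h, Matrix.mulVec_zero])
    obtain ⟨j, hj⟩ : ∃ j, b.repr x j ≠ 0 := by
      by_contra h
      push Not at h
      exact hx0 (b.repr.map_eq_zero_iff.1 (Finsupp.ext h))
    refine ⟨j, b.repr x j, hj, ?_⟩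
    have hzero : ∀ k, k ≠ j → b.repr x k = 0 := by
      intro k hk
      obtain ⟨l, hlj, hlk⟩ : ∃ l : Fin 5, l ≠ j ∧ l ≠ k :=
        (by decide : ∀ j k : Fin 5, ∃ l, l ≠ j ∧ l ≠ k) j k
      obtain ⟨e, he⟩ := hpair j l (Ne.symm hlj)
      have h1 : (e.1 : Matrix ι ι F) *ᵥ x = (if i ∈ mset ⟨_, hg _ e.2⟩ then (-1 : F) else 1) • x := by
        rw [hx, ← Matrix.mulVec_smul, ← hval ⟨_, hg _ e.2⟩ i, Matrix.mulVec_mulVec, Matrix.mulVec_mulVec,
          ← Units.val_mul, ← Units.val_mul]
        congr 2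
        show e.1 * g = g * (g⁻¹ * e.1 * g)
        group
      have h3 : ∀ m, b.repr ((e.1 : Matrix ι ι F) *ᵥ x) m = (if m ∈ mset e then (-1 : F) else 1) * b.repr x m := by
        intro m
        conv_lhs => rw [← b.sum_repr x, Matrix.mulVec_sum]
        simp only [Matrix.mulVec_smul, hb, hval, smul_smul]
        rw [map_sum, Finset.sum_apply', Finset.sum_eq_single m]
        · rw [← hb, map_smul, Basis.repr_self, Finsupp.smul_single, smul_eq_mul, mul_one, Finsupp.single_eq_same,
            mul_comm]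
        · intro l _ hl
          rw [← hb, map_smul, Basis.repr_self, Finsupp.smul_single, Finsupp.single_eq_of_ne (Ne.symm hl)]
        · exact fun h => absurd (Finset.mem_univ m) h
      rw [h1] at h3
      have ej := h3 j
      have ek := h3 k
      rw [map_smul, Finsupp.smul_apply, smul_eq_mul, he] at ej ek
      rw [if_pos (Finset.mem_insert_self j {l})] at ej
      rw [if_neg (show k ∉ ({j, l} : Finset (Fin 5)) by simp [hk, Ne.symm hlk])] at ek
      have := mul_right_cancel₀ hj ej
      rw [this] at ek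
      exact (mul_eq_zero.1 (show (2 : F) * b.repr x k = 0 by linear_combination -ek)).resolve_left h2
    conv_lhs => rw [← b.sum_repr x]
    rw [Finset.sum_eq_single j (fun k _ hk => by rw [hzero k hk, zero_smul]) (fun h => absurd (Finset.mem_univ j) h),
      hb]
  have hiff : ∀ g ∈ omegaGL Q, g ∈ Subgroup.normalizer (E : Set (GL ι F)) ↔ g ∈ decompositionStabilizer D := by
    intro g hgΩ
    constructor
    · intro hg
      choose σ c hc0 hc using hline g fun e he => by
        have := (Subgroup.mem_normalizer_iff.1 (inv_mem hg) e).1 he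
        simpa using this
      have hinj : Function.Injective σ := fun i j hij => by
        by_contra hne
        have h1 := isometry_b hQ (omegaGL_le hgΩ) (v i) (v j)
        rw [hc, hc, hij, hvo i j hne, map_smul, map_smul, LinearMap.smul_apply, b_self hQ] at h1
        simp [hc0, hvQ, h2] at h1
      refine ⟨Equiv.ofBijective σ (Finite.injective_iff_bijective.1 hinj), fun i => ?_⟩
      rw [Equiv.ofBijective_apply]
      show (Submodule.span F {v i}).map _ = Submodule.span F {v (σ i)}
      rw [Submodule.map_span, Set.image_singleton, Matrix.toLin'_apply, hc,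
        Submodule.span_singleton_smul_eq (isUnit_iff_ne_zero.2 (hc0 i))]
    · rintro ⟨σ, hσ⟩
      have key : ∀ e ∈ E, g * e * g⁻¹ ∈ E := by
        intro e he
        obtain ⟨e', he'⟩ := hall ((mset ⟨e, he⟩).image σ) (by
          rw [Finset.card_image_of_injective _ σ.injective]; exact heven _)
        suffices g * e * g⁻¹ = e'.1 from this ▸ e'.2
        refine hext _ _ fun k => ?_
        obtain ⟨i, rfl⟩ := σ.surjective k
        obtain ⟨c, hc⟩ : ∃ c : F, c • v (σ i) = (g : Matrix ι ι F) *ᵥ v i := Submodule.mem_span_singleton.1 (by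
          show _ ∈ D (σ i)
          rw [← hσ i]
          exact ⟨v i, Submodule.mem_span_singleton_self _, Matrix.toLin'_apply _ _⟩)
        have hc' : c ≠ 0 := fun h => hvne i (by
          rw [← inv_mulVec_cancel g (v i), ← hc, h, zero_smul, Matrix.mulVec_zero])
        have hinv : ((g⁻¹ : GL ι F) : Matrix ι ι F) *ᵥ v (σ i) = c⁻¹ • v i := by
          rw [← inv_mulVec_cancel g (v i), ← hc, Matrix.mulVec_smul, smul_smul, inv_mul_cancel₀ hc', one_smul]
        rw [hval e', he', Units.val_mul, Units.val_mul, ← Matrix.mulVec_mulVec, ← Matrix.mulVec_mulVec, hinv,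
          Matrix.mulVec_smul, hval ⟨e, he⟩, Matrix.mulVec_smul, Matrix.mulVec_smul, ← hc, smul_smul, smul_smul]
        simp only [Finset.mem_image, σ.injective.eq_iff, exists_eq_right]
        congr 1
        field_simp
      haveI : Finite E := Nat.finite_of_card_ne_zero (by rw [hcard]; norm_num)
      refine Subgroup.mem_normalizer_iff.2 fun h => ⟨key h, fun hh => ?_⟩
      let φ : E → E := fun e => ⟨g * e.1 * g⁻¹, key e.1 e.2⟩
      have hφ : Function.Injective φ := fun a c hac => Subtype.ext (by simpa [φ] using hac)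
      obtain ⟨a, ha⟩ := (Finite.injective_iff_surjective.1 hφ) ⟨_, hh⟩
      have : a.1 = h := by simpa [φ] using ha
      exact this ▸ a.2
  have heq : Subgroup.normalizer (E : Set (GL ι F)) ⊓ omegaGL Q = decompositionStabilizer D ⊓ omegaGL Q := by
    ext g
    exact ⟨fun h => ⟨(hiff g h.2).1 h.1, h.2⟩, fun h => ⟨(hiff g h.2).2 h.1, h.2⟩⟩
  rw [heq]
  exact frame_five_isMaximal hQ hp h2 hι hD

end CfsgLib.SpC6Four90
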